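import Mathlib.GroupTheory.Subgroup.Center
import Mathlib.Tactic

/-!
Conjugation up to central defects.
-/

set_option autoImplicit false

namespace CfsgLib.LyCover50

variable {G : Type*} [Group G]

/-- `t` conjugates `k` to `k'` times the central element `f` -/
def Cj (t k k' : G) (f : Subgroup.center G) : Prop := t⁻¹ * k * t = k' * (f : G)

theorem center_comm (f : Subgroup.center G) (g : G) : (f : G) * g = g * (f : G) :=
  (Subgroup.mem_center_iff.1 f.2 g).symm

theorem Cj.mul {t k k' l l' : G} {f g : Subgroup.center G} (h1 : Cj t k k' f) (h2 : Cj t l l' g) :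
    Cj t (k * l) (k' * l') (f * g) := by
  show _ = _
  calc t⁻¹ * (k * l) * t = (t⁻¹ * k * t) * (t⁻¹ * l * t) := by group
    _ = k' * ((f : G) * l') * (g : G) := by rw [h1, h2]; group
    _ = _ := by rw [center_comm f l', Subgroup.coe_mul]; group

theorem Cj.inv {t k k' : G} {f : Subgroup.center G} (h : Cj t k k' f) :
    Cj t k⁻¹ k'⁻¹ f⁻¹ := by
  show _ = _
  calc t⁻¹ * k⁻¹ * t = (t⁻¹ * k * t)⁻¹ := by group
    _ = (f : G)⁻¹ * k'⁻¹ := by rw [h]; group
    _ = _ := by rw [← Subgroup.coe_inv, center_comm f⁻¹ k'⁻¹]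

theorem Cj.one (t : G) : Cj t 1 1 1 := by simp [Cj]

theorem Cj.pow {t k k' : G} {f : Subgroup.center G} (h : Cj t k k' f) :
    ∀ n : ℕ, Cj t (k ^ n) (k' ^ n) (f ^ n)
  | 0 => by simpa using Cj.one t
  | n + 1 => by simpa only [pow_succ] using (Cj.pow h n).mul h

theorem Cj.congr {t k k' l l' : G} {f : Subgroup.center G} (h : Cj t k k' f) (hk : k = l)
    (hk' : k' = l') : Cj t l l' f := hk ▸ hk' ▸ h

theorem Cj.unique {t k k' l' : G} {f g : Subgroup.center G} (h1 : Cj t k k' f) (h2 : Cj t k l' g)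
    (hk : k' = l') : f = g := by
  subst hk
  exact Subtype.ext (mul_left_cancel (h1.symm.trans h2))

theorem Cj.apply {t k k' : G} {f : Subgroup.center G} (h : Cj t k k' f) (hf : f = 1) :
    t⁻¹ * k * t = k' := by
  rw [h, hf, Subgroup.coe_one, mul_one]

theorem Cj.mul_central {t k k' : G} {f : Subgroup.center G} (h : Cj t k k' f) (m : Subgroup.center G) :
    Cj (t * (m : G)) k k' f := by
  show _ = _
  calc (t * (m : G))⁻¹ * k * (t * (m : G)) = (m : G)⁻¹ * (t⁻¹ * k * t) * (m : G) := by group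
    _ = (m : G)⁻¹ * ((k' * (f : G)) * (m : G)) := by rw [h]; group
    _ = _ := by rw [← center_comm m (k' * (f : G))]; group

/-- a central element whose third power and fifth power are trivial -/
theorem eq_one_of_three_five {M : Type*} [Group M] {f : M} (h3 : f ^ 3 = 1) (h5 : f ^ 5 = 1) : f = 1 :=
  calc f = (f ^ 3) ^ 2 * (f ^ 5)⁻¹ := by group
    _ = 1 := by rw [h3, h5]; group

theorem eq_one_of_two_five {M : Type*} [Group M] {f : M} (h2 : f ^ 2 = 1) (h5 : f ^ 5 = 1) : f = 1 :=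
  calc f = f ^ 5 * ((f ^ 2) ^ 2)⁻¹ := by group
    _ = 1 := by rw [h2, h5]; group

theorem eq_one_of_three_four {M : Type*} [Group M] {f : M} (h3 : f ^ 3 = 1) (h4 : f ^ 4 = 1) : f = 1 :=
  calc f = f ^ 4 * (f ^ 3)⁻¹ := by group
    _ = 1 := by rw [h3, h4]; group

theorem eq_one_of_two_three {M : Type*} [Group M] {f : M} (h2 : f ^ 2 = 1) (h3 : f ^ 3 = 1) : f = 1 :=
  calc f = f ^ 3 * (f ^ 2)⁻¹ := by group
    _ = 1 := by rw [h2, h3]; group

/-- conjugating a product of four translates -/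
theorem chain_four {t x y1 y2 y3 fx f1 f2 f3 h1 h2 h3 h4 k1 k2 k3 k4 : G}
    (ex : x * t = t * fx) (e1 : y1 * t = t * f1) (e2 : y2 * t = t * f2) (e3 : y3 * t = t * f3)
    (c1 : fx * k1 = h1 * y1) (c2 : f1 * k2 = h2 * y2) (c3 : f2 * k3 = h3 * y3)
    (c4 : f3 * k4 = h4 * x) :
    x * (t * k1 * t * k2 * t * k3 * t * k4) = (t * h1 * t * h2 * t * h3 * t * h4) * x :=
  calc x * (t * k1 * t * k2 * t * k3 * t * k4)
      = x * t * k1 * t * k2 * t * k3 * t * k4 := by group
    _ = t * (fx * k1) * t * k2 * t * k3 * t * k4 := by rw [ex]; group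
    _ = t * h1 * (y1 * t) * k2 * t * k3 * t * k4 := by rw [c1]; group
    _ = t * h1 * t * (f1 * k2) * t * k3 * t * k4 := by rw [e1]; group
    _ = t * h1 * t * h2 * (y2 * t) * k3 * t * k4 := by rw [c2]; group
    _ = t * h1 * t * h2 * t * (f2 * k3) * t * k4 := by rw [e2]; group
    _ = t * h1 * t * h2 * t * h3 * (y3 * t) * k4 := by rw [c3]; group
    _ = t * h1 * t * h2 * t * h3 * t * (f3 * k4) := by rw [e3]; group
    _ = (t * h1 * t * h2 * t * h3 * t * h4) * x := by rw [c4]; group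

end CfsgLib.LyCover50
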