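import Cfsg.Agent.LyCover50.Ids
import Cfsg.Agent.LyCover50.Calc

/-!
In a central extension, once a, b, c, d satisfy the identities of G₂(5), some lift of z satisfies
relators 73–82 and 84 exactly.
-/

set_option autoImplicit false
set_option linter.unusedSimpArgs false

namespace CfsgLib.LyCover50

open scoped IsMulCommutative

variable {G Q : Type*} [Group G] [Group Q]

/-- the defect of a conjugation equation that holds in the quotient -/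
theorem exists_cj {σ : G →* Q} (hc : σ.ker ≤ Subgroup.center G) {t k k' : G}
    (h : (σ t)⁻¹ * σ k * σ t = σ k') : ∃ f : Subgroup.center G, Cj t k k' f := by
  refine ⟨⟨k'⁻¹ * (t⁻¹ * k * t), hc ?_⟩, ?_⟩
  · rw [MonoidHom.mem_ker, map_mul, map_inv, map_mul, map_mul, map_inv, h, inv_mul_cancel]
  · show t⁻¹ * k * t = k' * (k'⁻¹ * (t⁻¹ * k * t))
    rw [mul_inv_cancel_left]

/-- the conjugations of c1, ..., c5, a1, a2, a3 are exact -/
theorem conj_exact {A B C D T : G} (ids : Ids A B C D)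
    {f1 f2 f3 f4 f5 g g2 g3 : Subgroup.center G}
    (k1 : Cj T C (wx162 A B C) f1) (k2 : Cj T (wc2 A C) (wx163 A B C) f2)
    (k3 : Cj T (wc3 B C) (wx164 A B C) f3) (k4 : Cj T (wc4 B C) (wx165 A B C) f4)
    (k5 : Cj T (wc5 A C) (wx166 A B C) f5)
    (ka : Cj T A (wx167 A) g) (ka2 : Cj T (wa2 A B) (wx168 A B) g2)
    (ka3 : Cj T (wa3 A B) (wx169 A B) g3) :
    f1 = 1 ∧ f2 = 1 ∧ f3 = 1 ∧ f4 = 1 ∧ f5 = 1 ∧ g2 = g ∧ g3 = g ∧ g ^ 4 = 1 := by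
  have h5 : f1 ^ 5 = 1 := ((k1.pow 5).congr ids.c5 ids.p162).unique (Cj.one T) rfl
  have h35 : f3 ^ 5 = 1 := ((k3.pow 5).congr ids.k3 ids.p164).unique (Cj.one T) rfl
  have e2 : g⁻¹ * f1 * g = f2 := ((ka.inv.mul k1).mul ka).unique k2 ids.im2
  have e22 : g⁻¹ * f2 * g = (f1 ^ 2)⁻¹ :=
    (((ka.inv.mul k2).mul ka).congr ids.rel22 ids.im22).unique (k1.pow 2).inv rfl
  have e23 : g⁻¹ * f3 * g = (f3 ^ 2)⁻¹ * f1 * f4 :=
    (((ka.inv.mul k3).mul ka).congr ids.rel23 ids.im23).unique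
      (((k3.pow 2).inv.mul k1).mul k4) rfl
  have e24 : g⁻¹ * f4 * g = f1 * f2⁻¹ * f3⁻¹ * f4 * f1 * f4 :=
    (((ka.inv.mul k4).mul ka).congr ids.rel24 ids.im24).unique
      (((((k1.mul k2.inv).mul k3.inv).mul k4).mul k1).mul k4) rfl
  have e5 : f1⁻¹ * f2⁻¹ * f1 * f2 = f5 :=
    (((k1.inv.mul k2.inv).mul k1).mul k2).unique k5 ids.im5
  simp only [inv_mul_cancel_comm] at e2 e22 e23 e24 e5
  subst e2
  have h1 : f1 = 1 := eq_one_of_three_five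
    (calc f1 ^ 3 = f1 ^ 2 * f1 := pow_succ f1 2
      _ = f1 ^ 2 * (f1 ^ 2)⁻¹ := by rw [← e22]
      _ = 1 := mul_inv_cancel _) h5
  subst h1
  simp only [inv_one, one_mul, mul_one] at e5 e23 e24
  have h43 : f4 = f3 ^ 3 :=
    calc f4 = f3 ^ 2 * ((f3 ^ 2)⁻¹ * f4) := (mul_inv_cancel_left _ _).symm
      _ = f3 ^ 3 := by rw [← e23, ← pow_succ]
  have h4 : f4 = f3 :=
    calc f4 = f3 * (f3⁻¹ * f4 * f4) * f4⁻¹ := by group
      _ = f3 * f4 * f4⁻¹ := by rw [← e24]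
      _ = f3 := mul_inv_cancel_right _ _
  have h32 : f3 ^ 2 = 1 :=
    calc f3 ^ 2 = f3 ^ 3 * f3⁻¹ := by group
      _ = 1 := by rw [← h43, h4, mul_inv_cancel]
  have h3 : f3 = 1 := eq_one_of_two_five h32 h35
  have hb1 : g2 * g * g2 = g * g2 * g :=
    (((ka2.mul ka).mul ka2).congr ids.br12 ids.ibr12).unique ((ka.mul ka2).mul ka) rfl
  have hb2 : g3 * g2 * g3 = g2 * g3 * g2 :=
    (((ka3.mul ka2).mul ka3).congr ids.br23 ids.ibr23).unique ((ka2.mul ka3).mul ka2) rfl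
  have hb3 : g ^ 3 * g3 * g = g3 :=
    ((((ka.pow 3).mul ka3).mul ka)).congr ids.r13 ids.ir13 |>.unique ka3 rfl
  have hg2 : g2 = g := by
    rw [mul_comm g g2] at hb1
    exact mul_left_cancel hb1
  have hg3 : g3 = g2 := by
    rw [mul_comm g2 g3] at hb2
    exact mul_left_cancel hb2
  refine ⟨rfl, rfl, h3, h4.trans h3, e5.symm, hg2, hg3.trans hg2, ?_⟩
  calc g ^ 4 = g3⁻¹ * (g ^ 3 * g3 * g) := by
        rw [mul_comm (g ^ 3) g3, mul_assoc, inv_mul_cancel_left, ← pow_succ]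
    _ = 1 := by rw [hb3, inv_mul_cancel]

/-- the defect at a is a cube root of one -/
theorem g_cube {A B C D T : G} (ids : Ids A B C D) {g f81 f82 : Subgroup.center G}
    (ka : Cj T A (wx167 A) g) (h81 : T ^ 2 = A ^ 2 * (f81 : G))
    (h82 : (wa4 A B * T) ^ 3 * A ^ 2 = (f82 : G)) : g ^ 3 = 1 := by
  obtain ⟨X, hX⟩ : ∃ X, X = wa4 A B := ⟨_, rfl⟩
  rw [← hX] at h82
  have hka : T⁻¹ * A * T = (A ^ 3)⁻¹ * (g : G) := ka
  have hTA : T * A * T⁻¹ = (A ^ 3)⁻¹ * (g : G) :=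
    calc T * A * T⁻¹ = T ^ 2 * (T⁻¹ * A * T) * (T ^ 2)⁻¹ := by group
      _ = A ^ 2 * ((f81 : G) * ((A ^ 3)⁻¹ * (g : G))) * (f81 : G)⁻¹ * (A ^ 2)⁻¹ := by
          rw [hka, h81]; group
      _ = A ^ 2 * (A ^ 3)⁻¹ * ((g : G) * (A ^ 2)⁻¹) := by
          rw [center_comm f81 ((A ^ 3)⁻¹ * (g : G))]; group
      _ = _ := by rw [center_comm g (A ^ 2)⁻¹]; group
  have hw : A⁻¹ * (X * T) * A = X * T * (g : G) :=
    calc A⁻¹ * (X * T) * A = A⁻¹ * X * (T * A * T⁻¹) * T := by group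
      _ = A⁻¹ * X * (A ^ 3)⁻¹ * ((g : G) * T) := by rw [hTA]; group
      _ = _ := by rw [hX, ids.a4conj, center_comm g T]; group
  have h3 : (f82 : G) = (f82 : G) * ((g ^ 3 : Subgroup.center G) : G) :=
    calc (f82 : G) = A⁻¹ * ((f82 : G) * A) := by rw [center_comm f82 A, inv_mul_cancel_left]
      _ = (A⁻¹ * (X * T) * A) ^ 3 * A ^ 2 := by rw [← h82]; simp only [pow_succ, pow_zero, one_mul]; group
      _ = (X * T * (g : G)) ^ 3 * A ^ 2 := by rw [hw]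
      _ = (X * T) ^ 3 * ((g : G) ^ 3 * A ^ 2) := by
          rw [(show Commute (X * T) (g : G) from (center_comm g (X * T)).symm).mul_pow, mul_assoc]
      _ = _ := by
          rw [← Subgroup.coe_pow, center_comm (g ^ 3) (A ^ 2), ← mul_assoc, h82]
  exact Subtype.ext (left_eq_mul.1 h3)

/-- relators 81 and 82 with a common defect are exact -/
theorem square_exact {A B C D T : G} (ids : Ids A B C D) {g : Subgroup.center G}
    (h81 : T ^ 2 = A ^ 2 * (g : G))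
    (h82 : (wa4 A B * T) ^ 3 * A ^ 2 = (g : G)) : g = 1 := by
  obtain ⟨X, hX⟩ : ∃ X, X = wa4 A B := ⟨_, rfl⟩
  rw [← hX] at h82
  obtain ⟨U, hU⟩ : ∃ U, U = A ^ 2 := ⟨_, rfl⟩
  rw [← hU] at h81 h82
  have hXX : X * X = U := by rw [hX, hU]; exact ids.a4sq
  have hU4 : U ^ 4 = 1 := by rw [hU, ← pow_mul]; exact ids.a8
  have hXU : Commute X U := by rw [← hXX]; exact (Commute.refl X).mul_right (Commute.refl X)
  have hTU : Commute T U := by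
    have h := (Commute.refl T).pow_right 2
    rw [h81] at h
    have hg : Commute T ((g : G)⁻¹) := (center_comm g⁻¹ T).symm
    simpa using h.mul_right hg
  have hXi : X⁻¹ = X * U⁻¹ := by
    rw [← hXX]; group
  have hTi : T⁻¹ = T * U⁻¹ * (g : G)⁻¹ :=
    calc T⁻¹ = T * (T ^ 2)⁻¹ := by group
      _ = T * ((g : G)⁻¹ * U⁻¹) := by rw [h81]; group
      _ = _ := by rw [← Subgroup.coe_inv, center_comm g⁻¹ U⁻¹]; group
  have hXT : (X * T) ^ 3 = (g : G) * U⁻¹ := by rw [← h82]; group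
  have hTX : (T * X) ^ 3 = (g : G) * U⁻¹ :=
    calc (T * X) ^ 3 = T * (X * T) ^ 3 * T⁻¹ := by simp only [pow_succ, pow_zero, one_mul]; group
      _ = T * (g : G) * U⁻¹ * T⁻¹ := by rw [hXT]; group
      _ = (g : G) * (T * U⁻¹) * T⁻¹ := by rw [← center_comm g T]; group
      _ = (g : G) * U⁻¹ := by rw [hTU.inv_right.eq]; group
  have hc1 : Commute (T * X) (U⁻¹ * (U⁻¹ * (g : G)⁻¹)) := by
    refine (hTU.mul_left hXU).inv_right.mul_right ((hTU.mul_left hXU).inv_right.mul_right ?_)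
    exact (center_comm g⁻¹ (T * X)).symm
  have hinv : (X * T)⁻¹ = T * X * (U⁻¹ * (U⁻¹ * (g : G)⁻¹)) :=
    calc (X * T)⁻¹ = T⁻¹ * X⁻¹ := mul_inv_rev X T
      _ = T * U⁻¹ * ((g : G)⁻¹ * (X * U⁻¹)) := by rw [hTi, hXi]; group
      _ = T * (U⁻¹ * X) * U⁻¹ * (g : G)⁻¹ := by
          rw [← Subgroup.coe_inv, center_comm g⁻¹ (X * U⁻¹)]; group
      _ = _ := by rw [← hXU.inv_right.eq]; group
  have hU8 : U ^ 8 = 1 := by rw [show (8 : ℕ) = 4 * 2 from rfl, pow_mul, hU4, one_pow]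
  have key : U * (g : G)⁻¹ = (g : G) * U⁻¹ * (U⁻¹ * (U⁻¹ * (g : G)⁻¹)) ^ 3 :=
    calc U * (g : G)⁻¹ = ((X * T) ^ 3)⁻¹ := by rw [hXT]; group
      _ = ((X * T)⁻¹) ^ 3 := (inv_pow _ 3).symm
      _ = _ := by rw [hinv, hc1.mul_pow, hTX]
  have hUg : Commute U (g : G) := (center_comm g U).symm
  have hg : (U⁻¹ * (U⁻¹ * (g : G)⁻¹)) ^ 3 = (U ^ 6)⁻¹ * ((g : G) ^ 3)⁻¹ := by
    rw [← mul_assoc, ((hUg.inv_left.inv_right).mul_left hUg.inv_left.inv_right).mul_pow,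
      ← mul_inv_rev, inv_pow, inv_pow, ← pow_two, ← pow_mul]
  rw [hg] at key
  have k2 : (g : G) = U * (g : G)⁻¹ * ((g : G) ^ 2 * U⁻¹) := by
    rw [show U * (g : G)⁻¹ * ((g : G) ^ 2 * U⁻¹) = U * (g : G) * U⁻¹ by group, ← center_comm g U,
      mul_inv_cancel_right]
  rw [key] at k2
  apply Subtype.ext
  show (g : G) = 1
  calc (g : G) = (g : G) * U⁻¹ * ((U ^ 6)⁻¹ * ((g : G) ^ 3)⁻¹) * ((g : G) ^ 2 * U⁻¹) := k2
    _ = (g : G) * (U ^ 7)⁻¹ * ((g : G)⁻¹ * U⁻¹) := by group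
    _ = (U ^ 7)⁻¹ * U⁻¹ := by
        rw [center_comm g (U ^ 7)⁻¹, ← Subgroup.coe_inv, center_comm g⁻¹ U⁻¹]
        rw [Subgroup.coe_inv, mul_assoc, ← mul_assoc (g : G), center_comm g U⁻¹, mul_inv_cancel_right]
    _ = (U ^ 8)⁻¹ := by group
    _ = 1 := by rw [hU8, inv_one]

/-- relator 84 is exact -/
theorem rel84_exact {A B C D T : G} (ids : Ids A B C D) {f : Subgroup.center G}
    (h73 : T⁻¹ * A * T = wx167 A) (h80 : T⁻¹ * wa3 A B * T = wx169 A B) (h81 : T ^ 2 = A ^ 2)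
    (h84 : T⁻¹ * D⁻¹ * T⁻¹ * wx369 A B C D * T * D * T * wx29 A B C D = (f : G)) : f = 1 := by
  obtain ⟨P, hP⟩ : ∃ P, P = wx369 A B C D := ⟨_, rfl⟩
  obtain ⟨S, hS⟩ : ∃ S, S = wx29 A B C D := ⟨_, rfl⟩
  obtain ⟨W, hW⟩ : ∃ W, W = T * D * T := ⟨_, rfl⟩
  obtain ⟨U, hU⟩ : ∃ U, U = A ^ 2 := ⟨_, rfl⟩
  rw [← hP, ← hS] at h84
  have hP3 : P ^ 3 = 1 := by rw [hP]; exact ids.p3
  have hS3 : S ^ 3 = 1 := by rw [hS]; exact ids.q3
  have hWP : W⁻¹ * P * W = (f : G) * S⁻¹ := by rw [← h84, hW]; group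
  have hf3 : f ^ 3 = 1 := by
    refine Subtype.ext ?_
    have hf : Commute (f : G) S⁻¹ := center_comm f S⁻¹
    calc ((f ^ 3 : Subgroup.center G) : G) = (f : G) ^ 3 * ((S ^ 3)⁻¹) := by rw [hS3]; simp
      _ = ((f : G) * S⁻¹) ^ 3 := by rw [hf.mul_pow, inv_pow]
      _ = W⁻¹ * P ^ 3 * W := by rw [← hWP]; simp only [pow_succ, pow_zero, one_mul]; group
      _ = 1 := by rw [hP3]; group
  have hTU : Commute T U := by rw [hU, ← h81]; exact (Commute.refl T).pow_right 2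
  have hTi : T⁻¹ = U⁻¹ * T := by rw [hU, ← h81]; group
  have e1 : T * (D⁻¹ * U⁻¹) * T * P * T * D * T * (S * U⁻¹) = (f : G) :=
    calc T * (D⁻¹ * U⁻¹) * T * P * T * D * T * (S * U⁻¹)
        = U * ((U⁻¹ * T) * D⁻¹ * (U⁻¹ * T) * P * T * D * T * S) * U⁻¹ := by group
      _ = U * (f : G) * U⁻¹ := by rw [← hTi, h84]
      _ = _ := by rw [← center_comm f U]; group
  have e2 : T * (D⁻¹ * U⁻¹) * T * P⁻¹ * T * D * T * (S⁻¹ * U⁻¹) = (f : G)⁻¹ :=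
    calc T * (D⁻¹ * U⁻¹) * T * P⁻¹ * T * D * T * (S⁻¹ * U⁻¹)
        = U * ((U⁻¹ * T) * D⁻¹ * (U⁻¹ * T) * P⁻¹ * T * D * T * S⁻¹) * U⁻¹ := by group
      _ = U * ((W⁻¹ * P * W)⁻¹ * S⁻¹) * U⁻¹ := by rw [← hTi, hW]; group
      _ = U * S * ((f : G)⁻¹ * (S⁻¹ * U⁻¹)) := by rw [hWP]; group
      _ = _ := by rw [← Subgroup.coe_inv, center_comm f⁻¹ (S⁻¹ * U⁻¹)]; group
  have cA : A * T = T * wx167 A := by rw [← h73]; group
  have c3 : wa3 A B * T = T * wx169 A B := by rw [← h80]; group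
  have m1 : wa3 A B * A * T = T * (wx169 A B * wx167 A) := by
    rw [mul_assoc, cA, ← mul_assoc, c3, mul_assoc]
  have m2 : A * wa3 A B * T = T * (wx167 A * wx169 A B) := by
    rw [mul_assoc, c3, ← mul_assoc, cA, mul_assoc]
  have hch := chain_four m1 m2 m2 m1
    (show wx169 A B * wx167 A * (D⁻¹ * U⁻¹) = D⁻¹ * U⁻¹ * (A * wa3 A B) by rw [hU]; exact ids.ch1)
    (show wx167 A * wx169 A B * P⁻¹ = P * (A * wa3 A B) by rw [hP]; exact ids.ch2)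
    (show wx167 A * wx169 A B * D = D * (wa3 A B * A) from ids.ch3)
    (show wx169 A B * wx167 A * (S⁻¹ * U⁻¹) = S * U⁻¹ * (wa3 A B * A) by
      rw [hS, hU]; exact ids.ch4)
  rw [e1, e2, center_comm f, ← Subgroup.coe_inv] at hch
  have hf : f⁻¹ = f := Subtype.ext (mul_left_cancel hch)
  refine eq_one_of_two_three ?_ hf3
  calc f ^ 2 = f * f := pow_two f
    _ = f⁻¹ * f := by rw [hf]
    _ = 1 := inv_mul_cancel f

/-- some lift of z satisfies relators 73–82 and 84 exactly -/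
theorem exists_zrels {σ : G →* Q} (hc : σ.ker ≤ Subgroup.center G) {A B C D T : G}
    (ids : Ids A B C D) (h : ZRels (σ A) (σ B) (σ C) (σ D) (σ T)) :
    ∃ Z, σ Z = σ T ∧ ZRels A B C D Z := by
  obtain ⟨f1, k1⟩ := exists_cj hc (t := T) (k := C) (k' := wx162 A B C)
    (by rw [map_wx162]; exact h.r73)
  obtain ⟨f2, k2⟩ := exists_cj hc (t := T) (k := wc2 A C) (k' := wx163 A B C)
    (by rw [map_wc2, map_wx163]; exact h.r74)
  obtain ⟨f3, k3⟩ := exists_cj hc (t := T) (k := wc3 B C) (k' := wx164 A B C)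
    (by rw [map_wc3, map_wx164]; exact h.r75)
  obtain ⟨f4, k4⟩ := exists_cj hc (t := T) (k := wc4 B C) (k' := wx165 A B C)
    (by rw [map_wc4, map_wx165]; exact h.r76)
  obtain ⟨f5, k5⟩ := exists_cj hc (t := T) (k := wc5 A C) (k' := wx166 A B C)
    (by rw [map_wc5, map_wx166]; exact h.r77)
  obtain ⟨g, ka⟩ := exists_cj hc (t := T) (k := A) (k' := wx167 A)
    (by rw [map_wx167]; exact h.r78)
  obtain ⟨g2, ka2⟩ := exists_cj hc (t := T) (k := wa2 A B) (k' := wx168 A B)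
    (by rw [map_wa2, map_wx168]; exact h.r79)
  obtain ⟨g3, ka3⟩ := exists_cj hc (t := T) (k := wa3 A B) (k' := wx169 A B)
    (by rw [map_wa3, map_wx169]; exact h.r80)
  obtain ⟨q81, hq81⟩ : ∃ q, q = (A ^ 2)⁻¹ * T ^ 2 := ⟨_, rfl⟩
  obtain ⟨q82, hq82⟩ : ∃ q, q = (wa4 A B * T) ^ 3 * A ^ 2 := ⟨_, rfl⟩
  have hs81 : σ q81 = 1 := by
    rw [hq81]; simp only [map_mul, map_inv, map_pow, h.r81, inv_mul_cancel]
  have hs82 : σ q82 = 1 := by
    rw [hq82]; simp only [map_mul, map_inv, map_pow, map_wa4, h.r82]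
  obtain ⟨f81, hf81⟩ : ∃ f : Subgroup.center G, (f : G) = q81 :=
    ⟨⟨q81, hc (MonoidHom.mem_ker.2 hs81)⟩, rfl⟩
  obtain ⟨f82, hf82⟩ : ∃ f : Subgroup.center G, (f : G) = q82 :=
    ⟨⟨q82, hc (MonoidHom.mem_ker.2 hs82)⟩, rfl⟩
  have h81 : T ^ 2 = A ^ 2 * (f81 : G) := by rw [hf81, hq81, mul_inv_cancel_left]
  have h82 : (wa4 A B * T) ^ 3 * A ^ 2 = (f82 : G) := by rw [hf82, hq82]
  obtain ⟨rfl, rfl, rfl, rfl, rfl, rfl, rfl, hg4⟩ := conj_exact ids k1 k2 k3 k4 k5 ka ka2 ka3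
  have hg : g3 = 1 := eq_one_of_three_four (g_cube ids ka h81 h82) hg4
  -- shift the lift
  obtain ⟨m, hm⟩ : ∃ m : Subgroup.center G, m = f81 * f82⁻¹ := ⟨_, rfl⟩
  obtain ⟨Z, hZ⟩ : ∃ Z, Z = T * (m : G) := ⟨_, rfl⟩
  have hσm : σ (m : G) = 1 := by
    rw [hm, Subgroup.coe_mul, Subgroup.coe_inv, hf81, hf82, map_mul, map_inv, hs81, hs82,
      inv_one, mul_one]
  have hσZ : σ Z = σ T := by rw [hZ, map_mul, hσm, mul_one]
  have cjZ : ∀ {k k' : G} {f : Subgroup.center G}, Cj T k k' f → f = 1 → Z⁻¹ * k * Z = k' :=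
    fun hk hf => hZ ▸ (hk.mul_central m).apply hf
  have hA : Z⁻¹ * A * Z = wx167 A := cjZ ka hg
  have hTm : Commute T (m : G) := (center_comm m T).symm
  have hXm : Commute (wa4 A B * T) (m : G) := (center_comm m _).symm
  have d81 : Z ^ 2 = A ^ 2 * ((f81 * m ^ 2 : Subgroup.center G) : G) := by
    rw [hZ, hTm.mul_pow, h81, Subgroup.coe_mul, Subgroup.coe_pow, mul_assoc]
  have d82 : (wa4 A B * Z) ^ 3 * A ^ 2 = ((f81 * m ^ 2 : Subgroup.center G) : G) := by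
    have hsame : f81 * m ^ 2 = f82 * m ^ 3 := by
      rw [pow_succ m 2, ← mul_assoc, mul_comm f81, mul_comm f82, mul_assoc (m ^ 2) f82 m]
      congr 1
      rw [hm, mul_comm f81, mul_inv_cancel_left]
    rw [hsame, hZ, ← mul_assoc, hXm.mul_pow, mul_assoc, ← Subgroup.coe_pow,
      center_comm (m ^ 3) (A ^ 2), ← mul_assoc, h82, Subgroup.coe_mul]
  have hx : f81 * m ^ 2 = 1 := square_exact ids d81 d82
  rw [hx, Subgroup.coe_one, mul_one] at d81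
  rw [hx, Subgroup.coe_one] at d82
  obtain ⟨f84, hf84⟩ : ∃ f : Subgroup.center G,
      Z⁻¹ * D⁻¹ * Z⁻¹ * wx369 A B C D * Z * D * Z * wx29 A B C D = (f : G) := by
    refine ⟨⟨_, hc (MonoidHom.mem_ker.2 ?_)⟩, rfl⟩
    simp only [map_mul, map_inv, map_wx369, map_wx29, hσZ]
    exact h.r84
  have h84 := rel84_exact ids hA (cjZ ka3 hg) d81 hf84
  refine ⟨Z, hσZ, ⟨cjZ k1 rfl, cjZ k2 rfl, cjZ k3 rfl, cjZ k4 rfl, cjZ k5 rfl, hA,
    cjZ ka2 hg, cjZ ka3 hg, d81, d82, ?_⟩⟩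
  rw [hf84, h84, Subgroup.coe_one]

end CfsgLib.LyCover50
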