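import Cfsg.Agent.LyCover50.Ids
import Cfsg.Agent.LyG2.Model

/-!
The identities hold in the presented G₂(5), checked in its matrices of size 14.
-/

set_option autoImplicit false
set_option linter.unusedSimpArgs false
set_option maxRecDepth 100000

namespace CfsgLib.LyCover50

open Cfsg.Lie CfsgLib.Packed5 CfsgLib.CosetEnum CfsgLib.LyG2

/-- words with the same matrix are equal in the presented group -/
theorem q_eq {u v : List ℕ}
    (h : (u.all (fun x => x.blt 8) && v.all (fun x => x.blt 8) &&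
      wordL 14 gm u == wordL 14 gm v) = true) :
    gword (lets fun i : Fin 4 => (PresentedGroup.of i : Q)) u =
      gword (lets fun i : Fin 4 => (PresentedGroup.of i : Q)) v := by
  simp only [Bool.and_eq_true, List.all_eq_true, Nat.blt, Nat.ble_eq, beq_iff_eq] at h
  apply phi_injective
  apply Subtype.ext
  apply toFu_injective
  show toFu (phi (gword gl u) : GL chevG2.Idx (ZMod 5)) = toFu (phi (gword gl v) : GL chevG2.Idx (ZMod 5))
  rw [phi_gword, phi_gword, toFu_gword h.1.1, toFu_gword h.1.2, h.2]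

/-- the four generators of the presented G₂(5) -/
abbrev qg (i : Fin 4) : Q := PresentedGroup.of i

theorem lets_0 : lets (fun i : Fin 4 => (PresentedGroup.of i : Q)) 0 = (qg 0) := rfl

theorem lets_1 : lets (fun i : Fin 4 => (PresentedGroup.of i : Q)) 1 = (qg 0)⁻¹ := rfl

theorem lets_2 : lets (fun i : Fin 4 => (PresentedGroup.of i : Q)) 2 = (qg 1) := rfl

theorem lets_3 : lets (fun i : Fin 4 => (PresentedGroup.of i : Q)) 3 = (qg 1)⁻¹ := rfl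

theorem lets_4 : lets (fun i : Fin 4 => (PresentedGroup.of i : Q)) 4 = (qg 2) := rfl

theorem lets_5 : lets (fun i : Fin 4 => (PresentedGroup.of i : Q)) 5 = (qg 2)⁻¹ := rfl

theorem lets_6 : lets (fun i : Fin 4 => (PresentedGroup.of i : Q)) 6 = (qg 3) := rfl

theorem lets_7 : lets (fun i : Fin 4 => (PresentedGroup.of i : Q)) 7 = (qg 3)⁻¹ := rfl

theorem q_a8 : (qg 0) ^ 8 = 1 := by
  have h := q_eq (u := [0, 0, 0, 0, 0, 0, 0, 0]) (v := []) (by decide +kernel)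
  simp only [gword, List.map_cons, List.map_nil, List.prod_cons, List.prod_nil, lets_0, lets_1, lets_2, lets_3, lets_4, lets_5, lets_6, lets_7, mul_one] at h
  simp only [wc2, wc3, wc4, wc5, wa2, wa3, wa4, wu, wx162, wx163, wx164, wx165, wx166, wx167, wx168, wx169, wx29, wx369, pow_succ, pow_zero, one_mul, mul_inv_rev, inv_inv, mul_assoc]
  exact h

theorem q_c5 : (qg 2) ^ 5 = 1 := by
  have h := q_eq (u := [4, 4, 4, 4, 4]) (v := []) (by decide +kernel)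
  simp only [gword, List.map_cons, List.map_nil, List.prod_cons, List.prod_nil, lets_0, lets_1, lets_2, lets_3, lets_4, lets_5, lets_6, lets_7, mul_one] at h
  simp only [wc2, wc3, wc4, wc5, wa2, wa3, wa4, wu, wx162, wx163, wx164, wx165, wx166, wx167, wx168, wx169, wx29, wx369, pow_succ, pow_zero, one_mul, mul_inv_rev, inv_inv, mul_assoc]
  exact h

theorem q_k3 : (wc3 (qg 1) (qg 2)) ^ 5 = 1 := by
  have h := q_eq (u := [3, 4, 2, 3, 4, 2, 3, 4, 2, 3, 4, 2, 3, 4, 2]) (v := []) (by decide +kernel)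
  simp only [gword, List.map_cons, List.map_nil, List.prod_cons, List.prod_nil, lets_0, lets_1, lets_2, lets_3, lets_4, lets_5, lets_6, lets_7, mul_one] at h
  simp only [wc2, wc3, wc4, wc5, wa2, wa3, wa4, wu, wx162, wx163, wx164, wx165, wx166, wx167, wx168, wx169, wx29, wx369, pow_succ, pow_zero, one_mul, mul_inv_rev, inv_inv, mul_assoc]
  exact h

theorem q_p162 : (wx162 (qg 0) (qg 1) (qg 2)) ^ 5 = 1 := by
  have h := q_eq (u := [1, 3, 1, 2, 5, 3, 0, 5, 2, 0, 1, 3, 1, 2, 5, 3, 0, 5, 2, 0, 1, 3, 1, 2, 5, 3, 0, 5, 2, 0, 1, 3, 1, 2, 5, 3, 0, 5, 2, 0, 1, 3, 1, 2, 5, 3, 0, 5, 2, 0]) (v := []) (by decide +kernel)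
  simp only [gword, List.map_cons, List.map_nil, List.prod_cons, List.prod_nil, lets_0, lets_1, lets_2, lets_3, lets_4, lets_5, lets_6, lets_7, mul_one] at h
  simp only [wc2, wc3, wc4, wc5, wa2, wa3, wa4, wu, wx162, wx163, wx164, wx165, wx166, wx167, wx168, wx169, wx29, wx369, pow_succ, pow_zero, one_mul, mul_inv_rev, inv_inv, mul_assoc]
  exact h

theorem q_p164 : (wx164 (qg 0) (qg 1) (qg 2)) ^ 5 = 1 := by
  have h := q_eq (u := [1, 3, 1, 4, 0, 2, 0, 1, 3, 1, 4, 0, 2, 0, 1, 3, 1, 4, 0, 2, 0, 1, 3, 1, 4, 0, 2, 0, 1, 3, 1, 4, 0, 2, 0]) (v := []) (by decide +kernel)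
  simp only [gword, List.map_cons, List.map_nil, List.prod_cons, List.prod_nil, lets_0, lets_1, lets_2, lets_3, lets_4, lets_5, lets_6, lets_7, mul_one] at h
  simp only [wc2, wc3, wc4, wc5, wa2, wa3, wa4, wu, wx162, wx163, wx164, wx165, wx166, wx167, wx168, wx169, wx29, wx369, pow_succ, pow_zero, one_mul, mul_inv_rev, inv_inv, mul_assoc]
  exact h

theorem q_rel22 : (qg 0)⁻¹ * wc2 (qg 0) (qg 2) * (qg 0) = ((qg 2) ^ 2)⁻¹ := by
  have h := q_eq (u := [1, 1, 4, 0, 0]) (v := [5, 5]) (by decide +kernel)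
  simp only [gword, List.map_cons, List.map_nil, List.prod_cons, List.prod_nil, lets_0, lets_1, lets_2, lets_3, lets_4, lets_5, lets_6, lets_7, mul_one] at h
  simp only [wc2, wc3, wc4, wc5, wa2, wa3, wa4, wu, wx162, wx163, wx164, wx165, wx166, wx167, wx168, wx169, wx29, wx369, pow_succ, pow_zero, one_mul, mul_inv_rev, inv_inv, mul_assoc]
  exact h

theorem q_rel23 : (qg 0)⁻¹ * wc3 (qg 1) (qg 2) * (qg 0) = ((wc3 (qg 1) (qg 2)) ^ 2)⁻¹ * (qg 2) * wc4 (qg 1) (qg 2) := by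
  have h := q_eq (u := [1, 3, 4, 2, 0]) (v := [3, 5, 2, 3, 5, 2, 4, 2, 4, 3]) (by decide +kernel)
  simp only [gword, List.map_cons, List.map_nil, List.prod_cons, List.prod_nil, lets_0, lets_1, lets_2, lets_3, lets_4, lets_5, lets_6, lets_7, mul_one] at h
  simp only [wc2, wc3, wc4, wc5, wa2, wa3, wa4, wu, wx162, wx163, wx164, wx165, wx166, wx167, wx168, wx169, wx29, wx369, pow_succ, pow_zero, one_mul, mul_inv_rev, inv_inv, mul_assoc]
  exact h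

theorem q_rel24 : (qg 0)⁻¹ * wc4 (qg 1) (qg 2) * (qg 0) =
    (qg 2) * (wc2 (qg 0) (qg 2))⁻¹ * (wc3 (qg 1) (qg 2))⁻¹ * wc4 (qg 1) (qg 2) * (qg 2) * wc4 (qg 1) (qg 2) := by
  have h := q_eq (u := [1, 2, 4, 3, 0]) (v := [4, 1, 5, 0, 3, 5, 2, 2, 4, 3, 4, 2, 4, 3]) (by decide +kernel)
  simp only [gword, List.map_cons, List.map_nil, List.prod_cons, List.prod_nil, lets_0, lets_1, lets_2, lets_3, lets_4, lets_5, lets_6, lets_7, mul_one] at h
  simp only [wc2, wc3, wc4, wc5, wa2, wa3, wa4, wu, wx162, wx163, wx164, wx165, wx166, wx167, wx168, wx169, wx29, wx369, pow_succ, pow_zero, one_mul, mul_inv_rev, inv_inv, mul_assoc]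
  exact h

theorem q_im2 : (wx167 (qg 0))⁻¹ * wx162 (qg 0) (qg 1) (qg 2) * wx167 (qg 0) = wx163 (qg 0) (qg 1) (qg 2) := by
  have h := q_eq (u := [0, 0, 0, 1, 3, 1, 2, 5, 3, 0, 5, 2, 0, 1, 1, 1]) (v := [3, 3, 0, 4, 1, 2, 4, 2]) (by decide +kernel)
  simp only [gword, List.map_cons, List.map_nil, List.prod_cons, List.prod_nil, lets_0, lets_1, lets_2, lets_3, lets_4, lets_5, lets_6, lets_7, mul_one] at h
  simp only [wc2, wc3, wc4, wc5, wa2, wa3, wa4, wu, wx162, wx163, wx164, wx165, wx166, wx167, wx168, wx169, wx29, wx369, pow_succ, pow_zero, one_mul, mul_inv_rev, inv_inv, mul_assoc]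
  exact h

theorem q_im5 : (wx162 (qg 0) (qg 1) (qg 2))⁻¹ * (wx163 (qg 0) (qg 1) (qg 2))⁻¹ * wx162 (qg 0) (qg 1) (qg 2) * wx163 (qg 0) (qg 1) (qg 2) = wx166 (qg 0) (qg 1) (qg 2) := by
  have h := q_eq (u := [1, 3, 4, 1, 2, 4, 3, 0, 2, 0, 3, 5, 3, 0, 5, 1, 2, 2, 1, 3, 1, 2, 5, 3, 0, 5, 2, 0, 3, 3, 0, 4, 1, 2, 4, 2]) (v := [2, 2, 1, 3, 4, 2, 0, 4, 3, 3, 5]) (by decide +kernel)
  simp only [gword, List.map_cons, List.map_nil, List.prod_cons, List.prod_nil, lets_0, lets_1, lets_2, lets_3, lets_4, lets_5, lets_6, lets_7, mul_one] at h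
  simp only [wc2, wc3, wc4, wc5, wa2, wa3, wa4, wu, wx162, wx163, wx164, wx165, wx166, wx167, wx168, wx169, wx29, wx369, pow_succ, pow_zero, one_mul, mul_inv_rev, inv_inv, mul_assoc]
  exact h

theorem q_im22 : (wx167 (qg 0))⁻¹ * wx163 (qg 0) (qg 1) (qg 2) * wx167 (qg 0) = ((wx162 (qg 0) (qg 1) (qg 2)) ^ 2)⁻¹ := by
  have h := q_eq (u := [0, 0, 0, 3, 3, 0, 4, 1, 2, 4, 2, 1, 1, 1]) (v := [1, 3, 4, 1, 2, 4, 3, 0, 2, 0, 1, 3, 4, 1, 2, 4, 3, 0, 2, 0]) (by decide +kernel)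
  simp only [gword, List.map_cons, List.map_nil, List.prod_cons, List.prod_nil, lets_0, lets_1, lets_2, lets_3, lets_4, lets_5, lets_6, lets_7, mul_one] at h
  simp only [wc2, wc3, wc4, wc5, wa2, wa3, wa4, wu, wx162, wx163, wx164, wx165, wx166, wx167, wx168, wx169, wx29, wx369, pow_succ, pow_zero, one_mul, mul_inv_rev, inv_inv, mul_assoc]
  exact h

theorem q_im23 : (wx167 (qg 0))⁻¹ * wx164 (qg 0) (qg 1) (qg 2) * wx167 (qg 0) =
    ((wx164 (qg 0) (qg 1) (qg 2)) ^ 2)⁻¹ * wx162 (qg 0) (qg 1) (qg 2) * wx165 (qg 0) (qg 1) (qg 2) := by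
  have h := q_eq (u := [0, 0, 0, 1, 3, 1, 4, 0, 2, 0, 1, 1, 1]) (v := [1, 3, 1, 5, 0, 2, 0, 1, 3, 1, 5, 0, 2, 0, 1, 3, 1, 2, 5, 3, 0, 5, 2, 0, 3, 1, 2, 4, 3, 0, 2]) (by decide +kernel)
  simp only [gword, List.map_cons, List.map_nil, List.prod_cons, List.prod_nil, lets_0, lets_1, lets_2, lets_3, lets_4, lets_5, lets_6, lets_7, mul_one] at h
  simp only [wc2, wc3, wc4, wc5, wa2, wa3, wa4, wu, wx162, wx163, wx164, wx165, wx166, wx167, wx168, wx169, wx29, wx369, pow_succ, pow_zero, one_mul, mul_inv_rev, inv_inv, mul_assoc]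
  exact h

theorem q_im24 : (wx167 (qg 0))⁻¹ * wx165 (qg 0) (qg 1) (qg 2) * wx167 (qg 0) = wx162 (qg 0) (qg 1) (qg 2) * (wx163 (qg 0) (qg 1) (qg 2))⁻¹ *
    (wx164 (qg 0) (qg 1) (qg 2))⁻¹ * wx165 (qg 0) (qg 1) (qg 2) * wx162 (qg 0) (qg 1) (qg 2) * wx165 (qg 0) (qg 1) (qg 2) := by
  have h := q_eq (u := [0, 0, 0, 3, 1, 2, 4, 3, 0, 2, 1, 1, 1]) (v := [1, 3, 1, 2, 5, 3, 0, 5, 2, 0, 3, 5, 3, 0, 5, 1, 2, 2, 1, 3, 1, 5, 0, 2, 0, 3, 1, 2, 4, 3, 0, 2, 1, 3, 1, 2, 5, 3, 0, 5, 2, 0, 3, 1, 2, 4, 3, 0, 2]) (by decide +kernel)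
  simp only [gword, List.map_cons, List.map_nil, List.prod_cons, List.prod_nil, lets_0, lets_1, lets_2, lets_3, lets_4, lets_5, lets_6, lets_7, mul_one] at h
  simp only [wc2, wc3, wc4, wc5, wa2, wa3, wa4, wu, wx162, wx163, wx164, wx165, wx166, wx167, wx168, wx169, wx29, wx369, pow_succ, pow_zero, one_mul, mul_inv_rev, inv_inv, mul_assoc]
  exact h

theorem q_br12 : wa2 (qg 0) (qg 1) * (qg 0) * wa2 (qg 0) (qg 1) = (qg 0) * wa2 (qg 0) (qg 1) * (qg 0) := by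
  have h := q_eq (u := [2, 0, 3, 0, 2, 0, 3]) (v := [0, 2, 0, 3, 0]) (by decide +kernel)
  simp only [gword, List.map_cons, List.map_nil, List.prod_cons, List.prod_nil, lets_0, lets_1, lets_2, lets_3, lets_4, lets_5, lets_6, lets_7, mul_one] at h
  simp only [wc2, wc3, wc4, wc5, wa2, wa3, wa4, wu, wx162, wx163, wx164, wx165, wx166, wx167, wx168, wx169, wx29, wx369, pow_succ, pow_zero, one_mul, mul_inv_rev, inv_inv, mul_assoc]
  exact h

theorem q_br23 : wa3 (qg 0) (qg 1) * wa2 (qg 0) (qg 1) * wa3 (qg 0) (qg 1) = wa2 (qg 0) (qg 1) * wa3 (qg 0) (qg 1) * wa2 (qg 0) (qg 1) := by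
  have h := q_eq (u := [2, 2, 0, 3, 3, 2, 0, 3, 2, 2, 0, 3, 3]) (v := [2, 0, 3, 2, 2, 0, 3, 3, 2, 0, 3]) (by decide +kernel)
  simp only [gword, List.map_cons, List.map_nil, List.prod_cons, List.prod_nil, lets_0, lets_1, lets_2, lets_3, lets_4, lets_5, lets_6, lets_7, mul_one] at h
  simp only [wc2, wc3, wc4, wc5, wa2, wa3, wa4, wu, wx162, wx163, wx164, wx165, wx166, wx167, wx168, wx169, wx29, wx369, pow_succ, pow_zero, one_mul, mul_inv_rev, inv_inv, mul_assoc]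
  exact h

theorem q_r13 : (qg 0) ^ 3 * wa3 (qg 0) (qg 1) * (qg 0) = wa3 (qg 0) (qg 1) := by
  have h := q_eq (u := [0, 0, 0, 2, 2, 0, 3, 3, 0]) (v := [2, 2, 0, 3, 3]) (by decide +kernel)
  simp only [gword, List.map_cons, List.map_nil, List.prod_cons, List.prod_nil, lets_0, lets_1, lets_2, lets_3, lets_4, lets_5, lets_6, lets_7, mul_one] at h
  simp only [wc2, wc3, wc4, wc5, wa2, wa3, wa4, wu, wx162, wx163, wx164, wx165, wx166, wx167, wx168, wx169, wx29, wx369, pow_succ, pow_zero, one_mul, mul_inv_rev, inv_inv, mul_assoc]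
  exact h

theorem q_ibr12 : wx168 (qg 0) (qg 1) * wx167 (qg 0) * wx168 (qg 0) (qg 1) = wx167 (qg 0) * wx168 (qg 0) (qg 1) * wx167 (qg 0) := by
  have h := q_eq (u := [2, 1, 3, 1, 1, 1, 1, 1, 2, 1, 3, 1, 1]) (v := [1, 1, 1, 2, 1, 3, 1, 1, 1, 1, 1]) (by decide +kernel)
  simp only [gword, List.map_cons, List.map_nil, List.prod_cons, List.prod_nil, lets_0, lets_1, lets_2, lets_3, lets_4, lets_5, lets_6, lets_7, mul_one] at h
  simp only [wc2, wc3, wc4, wc5, wa2, wa3, wa4, wu, wx162, wx163, wx164, wx165, wx166, wx167, wx168, wx169, wx29, wx369, pow_succ, pow_zero, one_mul, mul_inv_rev, inv_inv, mul_assoc]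
  exact h

theorem q_ibr23 : wx169 (qg 0) (qg 1) * wx168 (qg 0) (qg 1) * wx169 (qg 0) (qg 1) = wx168 (qg 0) (qg 1) * wx169 (qg 0) (qg 1) * wx168 (qg 0) (qg 1) := by
  have h := q_eq (u := [0, 2, 2, 0, 3, 3, 1, 2, 1, 3, 1, 1, 0, 2, 2, 0, 3, 3, 1]) (v := [2, 1, 3, 1, 1, 0, 2, 2, 0, 3, 3, 1, 2, 1, 3, 1, 1]) (by decide +kernel)
  simp only [gword, List.map_cons, List.map_nil, List.prod_cons, List.prod_nil, lets_0, lets_1, lets_2, lets_3, lets_4, lets_5, lets_6, lets_7, mul_one] at h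
  simp only [wc2, wc3, wc4, wc5, wa2, wa3, wa4, wu, wx162, wx163, wx164, wx165, wx166, wx167, wx168, wx169, wx29, wx369, pow_succ, pow_zero, one_mul, mul_inv_rev, inv_inv, mul_assoc]
  exact h

theorem q_ir13 : (wx167 (qg 0)) ^ 3 * wx169 (qg 0) (qg 1) * wx167 (qg 0) = wx169 (qg 0) (qg 1) := by
  have h := q_eq (u := [1, 1, 1, 1, 1, 1, 1, 1, 1, 0, 2, 2, 0, 3, 3, 1, 1, 1, 1]) (v := [0, 2, 2, 0, 3, 3, 1]) (by decide +kernel)
  simp only [gword, List.map_cons, List.map_nil, List.prod_cons, List.prod_nil, lets_0, lets_1, lets_2, lets_3, lets_4, lets_5, lets_6, lets_7, mul_one] at h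
  simp only [wc2, wc3, wc4, wc5, wa2, wa3, wa4, wu, wx162, wx163, wx164, wx165, wx166, wx167, wx168, wx169, wx29, wx369, pow_succ, pow_zero, one_mul, mul_inv_rev, inv_inv, mul_assoc]
  exact h

theorem q_a4sq : wa4 (qg 0) (qg 1) * wa4 (qg 0) (qg 1) = (qg 0) ^ 2 := by
  have h := q_eq (u := [3, 3, 0, 2, 2, 3, 3, 0, 2, 2]) (v := [0, 0]) (by decide +kernel)
  simp only [gword, List.map_cons, List.map_nil, List.prod_cons, List.prod_nil, lets_0, lets_1, lets_2, lets_3, lets_4, lets_5, lets_6, lets_7, mul_one] at h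
  simp only [wc2, wc3, wc4, wc5, wa2, wa3, wa4, wu, wx162, wx163, wx164, wx165, wx166, wx167, wx168, wx169, wx29, wx369, pow_succ, pow_zero, one_mul, mul_inv_rev, inv_inv, mul_assoc]
  exact h

theorem q_a4conj : (qg 0)⁻¹ * wa4 (qg 0) (qg 1) * ((qg 0) ^ 3)⁻¹ = wa4 (qg 0) (qg 1) := by
  have h := q_eq (u := [1, 3, 3, 0, 2, 2, 1, 1, 1]) (v := [3, 3, 0, 2, 2]) (by decide +kernel)
  simp only [gword, List.map_cons, List.map_nil, List.prod_cons, List.prod_nil, lets_0, lets_1, lets_2, lets_3, lets_4, lets_5, lets_6, lets_7, mul_one] at h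
  simp only [wc2, wc3, wc4, wc5, wa2, wa3, wa4, wu, wx162, wx163, wx164, wx165, wx166, wx167, wx168, wx169, wx29, wx369, pow_succ, pow_zero, one_mul, mul_inv_rev, inv_inv, mul_assoc]
  exact h

theorem q_q3 : (wx29 (qg 0) (qg 1) (qg 2) (qg 3)) ^ 3 = 1 := by
  have h := q_eq (u := [0, 2, 1, 2, 2, 1, 2, 2, 5, 0, 4, 2, 4, 3, 6, 4, 3, 3, 6, 4, 2, 4, 0, 2, 1, 2, 2, 1, 2, 2, 5, 0, 4, 2, 4, 3, 6, 4, 3, 3, 6, 4, 2, 4, 0, 2, 1, 2, 2, 1, 2, 2, 5, 0, 4, 2, 4, 3, 6, 4, 3, 3, 6, 4, 2, 4]) (v := []) (by decide +kernel)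
  simp only [gword, List.map_cons, List.map_nil, List.prod_cons, List.prod_nil, lets_0, lets_1, lets_2, lets_3, lets_4, lets_5, lets_6, lets_7, mul_one] at h
  simp only [wc2, wc3, wc4, wc5, wa2, wa3, wa4, wu, wx162, wx163, wx164, wx165, wx166, wx167, wx168, wx169, wx29, wx369, pow_succ, pow_zero, one_mul, mul_inv_rev, inv_inv, mul_assoc]
  exact h

theorem q_p3 : (wx369 (qg 0) (qg 1) (qg 2) (qg 3)) ^ 3 = 1 := by
  have h := q_eq (u := [1, 5, 7, 2, 1, 3, 5, 7, 2, 1, 3, 5, 3, 0, 3, 3, 0, 3, 1, 5, 7, 2, 1, 3, 5, 7, 2, 1, 3, 5, 3, 0, 3, 3, 0, 3, 1, 5, 7, 2, 1, 3, 5, 7, 2, 1, 3, 5, 3, 0, 3, 3, 0, 3]) (v := []) (by decide +kernel)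
  simp only [gword, List.map_cons, List.map_nil, List.prod_cons, List.prod_nil, lets_0, lets_1, lets_2, lets_3, lets_4, lets_5, lets_6, lets_7, mul_one] at h
  simp only [wc2, wc3, wc4, wc5, wa2, wa3, wa4, wu, wx162, wx163, wx164, wx165, wx166, wx167, wx168, wx169, wx29, wx369, pow_succ, pow_zero, one_mul, mul_inv_rev, inv_inv, mul_assoc]
  exact h

theorem q_ch1 : wx169 (qg 0) (qg 1) * wx167 (qg 0) * ((qg 3)⁻¹ * ((qg 0) ^ 2)⁻¹) = (qg 3)⁻¹ * ((qg 0) ^ 2)⁻¹ * ((qg 0) * wa3 (qg 0) (qg 1)) := by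
  have h := q_eq (u := [0, 2, 2, 0, 3, 3, 1, 1, 1, 1, 7, 1, 1]) (v := [7, 1, 1, 0, 2, 2, 0, 3, 3]) (by decide +kernel)
  simp only [gword, List.map_cons, List.map_nil, List.prod_cons, List.prod_nil, lets_0, lets_1, lets_2, lets_3, lets_4, lets_5, lets_6, lets_7, mul_one] at h
  simp only [wc2, wc3, wc4, wc5, wa2, wa3, wa4, wu, wx162, wx163, wx164, wx165, wx166, wx167, wx168, wx169, wx29, wx369, pow_succ, pow_zero, one_mul, mul_inv_rev, inv_inv, mul_assoc]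
  exact h

theorem q_ch2 : wx167 (qg 0) * wx169 (qg 0) (qg 1) * (wx369 (qg 0) (qg 1) (qg 2) (qg 3))⁻¹ = wx369 (qg 0) (qg 1) (qg 2) (qg 3) * ((qg 0) * wa3 (qg 0) (qg 1)) := by
  have h := q_eq (u := [1, 1, 1, 0, 2, 2, 0, 3, 3, 1, 2, 1, 2, 2, 1, 2, 4, 2, 0, 3, 6, 4, 2, 0, 3, 6, 4, 0]) (v := [1, 5, 7, 2, 1, 3, 5, 7, 2, 1, 3, 5, 3, 0, 3, 3, 0, 3, 0, 2, 2, 0, 3, 3]) (by decide +kernel)
  simp only [gword, List.map_cons, List.map_nil, List.prod_cons, List.prod_nil, lets_0, lets_1, lets_2, lets_3, lets_4, lets_5, lets_6, lets_7, mul_one] at h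
  simp only [wc2, wc3, wc4, wc5, wa2, wa3, wa4, wu, wx162, wx163, wx164, wx165, wx166, wx167, wx168, wx169, wx29, wx369, pow_succ, pow_zero, one_mul, mul_inv_rev, inv_inv, mul_assoc]
  exact h

theorem q_ch3 : wx167 (qg 0) * wx169 (qg 0) (qg 1) * (qg 3) = (qg 3) * (wa3 (qg 0) (qg 1) * (qg 0)) := by
  have h := q_eq (u := [1, 1, 1, 0, 2, 2, 0, 3, 3, 1, 6]) (v := [6, 2, 2, 0, 3, 3, 0]) (by decide +kernel)
  simp only [gword, List.map_cons, List.map_nil, List.prod_cons, List.prod_nil, lets_0, lets_1, lets_2, lets_3, lets_4, lets_5, lets_6, lets_7, mul_one] at h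
  simp only [wc2, wc3, wc4, wc5, wa2, wa3, wa4, wu, wx162, wx163, wx164, wx165, wx166, wx167, wx168, wx169, wx29, wx369, pow_succ, pow_zero, one_mul, mul_inv_rev, inv_inv, mul_assoc]
  exact h

theorem q_ch4 : wx169 (qg 0) (qg 1) * wx167 (qg 0) * ((wx29 (qg 0) (qg 1) (qg 2) (qg 3))⁻¹ * ((qg 0) ^ 2)⁻¹) =
    wx29 (qg 0) (qg 1) (qg 2) (qg 3) * ((qg 0) ^ 2)⁻¹ * (wa3 (qg 0) (qg 1) * (qg 0)) := by
  have h := q_eq (u := [0, 2, 2, 0, 3, 3, 1, 1, 1, 1, 5, 3, 5, 7, 2, 2, 5, 7, 2, 5, 3, 5, 1, 4, 3, 3, 0, 3, 3, 0, 3, 1, 1, 1]) (v := [0, 2, 1, 2, 2, 1, 2, 2, 5, 0, 4, 2, 4, 3, 6, 4, 3, 3, 6, 4, 2, 4, 1, 1, 2, 2, 0, 3, 3, 0]) (by decide +kernel)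
  simp only [gword, List.map_cons, List.map_nil, List.prod_cons, List.prod_nil, lets_0, lets_1, lets_2, lets_3, lets_4, lets_5, lets_6, lets_7, mul_one] at h
  simp only [wc2, wc3, wc4, wc5, wa2, wa3, wa4, wu, wx162, wx163, wx164, wx165, wx166, wx167, wx168, wx169, wx29, wx369, pow_succ, pow_zero, one_mul, mul_inv_rev, inv_inv, mul_assoc]
  exact h

/-- all identities -/
theorem q_ids : Ids (qg 0) (qg 1) (qg 2) (qg 3) :=
  ⟨q_a8,
    q_c5,
    q_k3,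
    q_p162,
    q_p164,
    q_rel22,
    q_rel23,
    q_rel24,
    q_im2,
    q_im5,
    q_im22,
    q_im23,
    q_im24,
    q_br12,
    q_br23,
    q_r13,
    q_ibr12,
    q_ibr23,
    q_ir13,
    q_a4sq,
    q_a4conj,
    q_q3,
    q_p3,
    q_ch1,
    q_ch2,
    q_ch3,
    q_ch4⟩

end CfsgLib.LyCover50
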