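import Cfsg.Agent.LyCover50.OfG2
import Cfsg.Agent.LyCover50.QIds

/-!
The Schur multiplier of the Lyons group from its finiteness and the index bound.
-/

set_option autoImplicit false

namespace CfsgLib.LyCover50

open Cfsg Cfsg.Spor

theorem incl_gen (i : Fin 4) : LyG2.incl (qg i) = lg (LyG2.four i) :=
  PresentedGroup.toGroup.of _

/-- the multiplier is trivial, given the bound over the presented G₂(5) -/
theorem multiplier_Ly_of_bound [Finite Spor.Ly]
    (hbound : ∀ (E : Type) [Group E] [Finite E] (φ : LyG2.Q →* E) (t : E),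
      ZRels (φ (qg 0)) (φ (qg 1)) (φ (qg 2)) (φ (qg 3)) t →
        Subgroup.closure ((φ.range : Set E) ∪ {t}) = ⊤ → Nat.card E ≤ Nat.card Spor.Ly) :
    Cfsg.HasCyclicSchurMultiplier Spor.Ly 1 :=
  multiplier_Ly_of_g2 (ZMod.card 5) LyG2.equiv q_ids LyG2.incl (incl_gen 0) (incl_gen 1)
    (incl_gen 2) (incl_gen 3) hbound

/-- the bound follows from the index bound and the order of the group -/
theorem card_le_of_index {Q' E : Type} [Group Q'] [Group E] [Finite Q'] (φ : Q' →* E) {n q : ℕ}
    (hn : φ.range.index ≤ n) (hq : Nat.card Q' ≤ q) :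
    Nat.card E ≤ n * q := by
  rw [← φ.range.index_mul_card]
  exact Nat.mul_le_mul hn
    ((Nat.card_le_card_of_surjective φ.rangeRestrict φ.rangeRestrict_surjective).trans hq)

end CfsgLib.LyCover50
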