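import Cfsg.Agent.LyCover50.Final
import Cfsg.Agent.LyIndex33.Glue

/-!
The Schur multiplier of the Lyons group from its order.
-/

set_option autoImplicit false

namespace CfsgLib.LyCover50

open Cfsg Cfsg.Spor

/-- the multiplier is trivial, given the order of the group -/
theorem multiplier_Ly_of_card (hcard : Nat.card Spor.Ly = 51765179004000000) :
    Cfsg.HasCyclicSchurMultiplier Spor.Ly 1 := by
  haveI : Finite Spor.Ly := Nat.finite_of_card_ne_zero (by rw [hcard]; norm_num)
  refine multiplier_Ly_of_bound fun E _ _ φ t hz hgen => ?_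
  rw [hcard]
  exact (Ly33.card_le_Q E φ t hz hgen).2.trans (by norm_num)

end CfsgLib.LyCover50
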