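import Cfsg.Agent.LyCover50.Maps
import Cfsg.Agent.LyCover50.Defects
import Cfsg.Agent.LyCover50.LyFacts
import Cfsg.Agent.SchurMult.Multiplier
import Cfsg.Agent.SchurMult.Central

/-!
The Schur multiplier of the presented Lyons group, from the subgroup generated by a, b, c, d and a
bound on groups satisfying relators 73–82 and 84 over that subgroup.
-/

set_option autoImplicit false

namespace CfsgLib.LyCover50

open Cfsg Cfsg.Spor

universe u v w

/-- a perfect group with trivial multiplier lifts through central extensions -/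
theorem exists_hom_lift {M : Type u} [Group M] [Finite M] (hperf : commutator M = ⊤)
    (hM : Cfsg.HasCyclicSchurMultiplier M 1) {Q : Type v} [Group Q] {G : Type w} [Group G]
    (σ : G →* Q) (hs : Function.Surjective σ) (hc : σ.ker ≤ Subgroup.center G) (φ₀ : M →* Q) :
    ∃ φ : M →* G, σ.comp φ = φ₀ := by
  obtain ⟨r, hr⟩ : ∃ r : ↥(commutator ↥(SchurMult.fibreProd φ₀ σ)) →* M,
      r = (SchurMult.fibreFst φ₀ σ).comp (commutator ↥(SchurMult.fibreProd φ₀ σ)).subtype :=
    ⟨_, rfl⟩
  have hfs : Function.Surjective (SchurMult.fibreFst φ₀ σ) := SchurMult.fibreFst_surjective hs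
  have hbot := SchurMult.ker_inf_commutator_eq_bot hM hfs (SchurMult.fibreFst_ker_le_center hc)
  have hbij : Function.Bijective r := by
    constructor
    · refine (injective_iff_map_eq_one r).2 fun x hx => Subtype.ext ?_
      rw [hr] at hx
      exact Subgroup.mem_bot.1 (hbot ▸ ⟨hx, x.2⟩)
    · intro m
      have hmap : (commutator ↥(SchurMult.fibreProd φ₀ σ)).map (SchurMult.fibreFst φ₀ σ) = ⊤ := by
        rw [commutator_def, Subgroup.map_commutator, Subgroup.map_top_of_surjective _ hfs,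
          ← commutator_def, hperf]
      obtain ⟨p, hp, hpm⟩ := Subgroup.mem_map.1 (hmap ▸ Subgroup.mem_top m)
      exact ⟨⟨p, hp⟩, by rw [hr]; exact hpm⟩
  refine ⟨((SchurMult.fibreSnd φ₀ σ).comp (commutator ↥(SchurMult.fibreProd φ₀ σ)).subtype).comp
    (MulEquiv.ofBijective r hbij).symm.toMonoidHom, MonoidHom.ext fun m => ?_⟩
  obtain ⟨p, rfl⟩ := hbij.2 m
  have hsymm : (MulEquiv.ofBijective r hbij).symm (r p) = p :=
    (MulEquiv.ofBijective r hbij).symm_apply_apply p
  show σ (SchurMult.fibreSnd φ₀ σ ((MulEquiv.ofBijective r hbij).symm (r p)).1) = φ₀ (r p)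
  rw [hsymm, hr]
  exact (SchurMult.mem_fibreProd.1 p.1.2).symm

/-- a subgroup meeting a central kernel trivially and mapping onto the quotient of a stem
extension is everything -/
theorem ker_eq_bot_of_subgroup {G : Type u} [Group G] {Q : Type v} [Group Q] (σ : G →* Q)
    (hc : σ.ker ≤ Subgroup.center G) (hk : σ.ker ≤ commutator G) (W : Subgroup G)
    (hW : Function.Bijective (σ.comp W.subtype)) : σ.ker = ⊥ := by
  have hcomm : commutator G ≤ W := by
    rw [commutator_def, Subgroup.commutator_le]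
    intro g _ g' _
    obtain ⟨x, hx⟩ := hW.2 (σ g)
    obtain ⟨y, hy⟩ := hW.2 (σ g')
    change σ (x : G) = σ g at hx
    change σ (y : G) = σ g' at hy
    have hkx : (x : G)⁻¹ * g ∈ Subgroup.center G := hc (by simp [MonoidHom.mem_ker, hx])
    have hky : (y : G)⁻¹ * g' ∈ Subgroup.center G := hc (by simp [MonoidHom.mem_ker, hy])
    have hg : g = (x : G)⁻¹ * g * (x : G) := by
      rw [← Subgroup.mem_center_iff.1 hkx (x : G), mul_inv_cancel_left]
    have hg' : g' = (y : G)⁻¹ * g' * (y : G) := by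
      rw [← Subgroup.mem_center_iff.1 hky (y : G), mul_inv_cancel_left]
    rw [hg, hg', SchurMult.commutatorElement_mul_central hkx hky]
    exact commutatorElement_def (x : G) y ▸
      W.mul_mem (W.mul_mem (W.mul_mem x.2 y.2) (W.inv_mem x.2)) (W.inv_mem y.2)
  rw [eq_bot_iff]
  intro k hkk
  have h : (⟨k, hcomm (hk hkk)⟩ : W) = 1 := hW.1 (by simpa using hkk)
  exact congrArg Subtype.val h

/-- The multiplier of the presented Lyons group is trivial, given that ⟨a, b, c, d⟩ is an image of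
a perfect group with trivial multiplier satisfying the identities, and given the bound on the
order of a group satisfying relators 73–82 and 84 over it. -/
theorem multiplier_Ly_of {M : Type} [Group M] [Finite M] (hperf : commutator M = ⊤)
    (hM : Cfsg.HasCyclicSchurMultiplier M 1) {A B C D : M} (ids : Ids A B C D)
    (φ₀ : M →* Spor.Ly) (ha : φ₀ A = lg .a) (hb : φ₀ B = lg .b) (hc : φ₀ C = lg .c)
    (hd : φ₀ D = lg .d) [Finite Spor.Ly]
    (hbound : ∀ (E : Type) [Group E] [Finite E] (φ : M →* E) (t : E),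
      ZRels (φ A) (φ B) (φ C) (φ D) t → Subgroup.closure ((φ.range : Set E) ∪ {t}) = ⊤ →
        Nat.card E ≤ Nat.card Spor.Ly) :
    Cfsg.HasCyclicSchurMultiplier Spor.Ly 1 := by
  rw [SchurMult.hasCyclicSchurMultiplier_one_iff]
  rintro G _ _ σ ⟨hs, hcen, hstem⟩
  obtain ⟨φ, hφ⟩ := exists_hom_lift hperf hM σ hs hcen φ₀
  have hσ : ∀ m, σ (φ m) = φ₀ m := DFunLike.congr_fun hφ
  obtain ⟨T, hT⟩ := hs (lg .z)
  obtain ⟨Z, hσZ, hZ⟩ := exists_zrels hcen (T := T) (ids.map φ)
    (by rw [hσ, hσ, hσ, hσ, ha, hb, hc, hd, hT]; exact ly_zrels)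
  obtain ⟨W, hWdef⟩ : ∃ W, W = Subgroup.closure ((φ.range : Set G) ∪ {Z}) := ⟨_, rfl⟩
  have hφW : ∀ m, φ m ∈ W := fun m => by
    rw [hWdef]; exact Subgroup.subset_closure (Or.inl ⟨m, rfl⟩)
  have hZW : Z ∈ W := by rw [hWdef]; exact Subgroup.subset_closure (Or.inr rfl)
  have hrel : ZRels (φ.codRestrict W hφW A) (φ.codRestrict W hφW B) (φ.codRestrict W hφW C)
      (φ.codRestrict W hφW D) (⟨Z, hZW⟩ : W) := by
    obtain ⟨h1, h2, h3, h4, h5, h6, h7, h8, h9, h10, h11⟩ := hZ
    have e : ∀ {p q : W}, W.subtype p = W.subtype q → p = q := fun h => Subtype.ext h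
    have hm : ∀ m, W.subtype (φ.codRestrict W hφW m) = φ m := fun _ => rfl
    have hz : W.subtype (⟨Z, hZW⟩ : W) = Z := rfl
    constructor <;> apply e <;>
      simp only [map_mul, map_inv, map_pow, map_one, map_wc2, map_wc3,
        map_wc4, map_wc5, map_wa2, map_wa3, map_wa4, map_wx162, map_wx163, map_wx164, map_wx165,
        map_wx166, map_wx167, map_wx168, map_wx169, map_wx29, map_wx369, hm, hz] <;>
      assumption
  have hgen : Subgroup.closure (((φ.codRestrict W hφW).range : Set W) ∪ {(⟨Z, hZW⟩ : W)}) = ⊤ := by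
    refine Subgroup.map_injective W.subtype_injective ?_
    rw [MonoidHom.map_closure, ← MonoidHom.range_eq_map, Subgroup.range_subtype]
    refine Eq.trans (congrArg Subgroup.closure ?_) hWdef.symm
    ext g
    simp only [Set.image_union, Set.image_singleton, Set.mem_union, Set.mem_image, SetLike.mem_coe,
      MonoidHom.mem_range, Subgroup.coe_subtype]
    constructor
    · rintro (⟨x, ⟨m, rfl⟩, rfl⟩ | h)
      · exact Or.inl ⟨m, rfl⟩
      · exact Or.inr h
    · rintro (⟨m, rfl⟩ | h)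
      · exact Or.inl ⟨_, ⟨m, rfl⟩, rfl⟩
      · exact Or.inr h
  have hcard := hbound W (φ.codRestrict W hφW) ⟨Z, hZW⟩ hrel hgen
  have hsurj : Function.Surjective (σ.comp W.subtype) := by
    rw [← MonoidHom.range_eq_top, eq_top_iff, ← ly_closure, Subgroup.closure_le]
    intro g hg
    simp only [Set.mem_insert_iff, Set.mem_singleton_iff] at hg
    rcases hg with rfl | rfl | rfl | rfl | rfl
    · exact ⟨⟨φ A, hφW A⟩, (hσ A).trans ha⟩
    · exact ⟨⟨φ B, hφW B⟩, (hσ B).trans hb⟩
    · exact ⟨⟨φ C, hφW C⟩, (hσ C).trans hc⟩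
    · exact ⟨⟨φ D, hφW D⟩, (hσ D).trans hd⟩
    · exact ⟨⟨Z, hZW⟩, hσZ.trans hT⟩
  exact ker_eq_bot_of_subgroup σ hcen hstem W ((Nat.bijective_iff_surjective_and_card _).2
    ⟨hsurj, le_antisymm hcard (Nat.card_le_card_of_surjective _ hsurj)⟩)

end CfsgLib.LyCover50
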