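import Cfsg.Agent.LyCover50.Ids

/-!
Homomorphic images of the identities and of the relators.
-/

set_option autoImplicit false
set_option linter.unusedSimpArgs false

namespace CfsgLib.LyCover50

variable {G H : Type*} [Group G] [Group H] (φ : G →* H) {a b c d z : G}

theorem Ids.map (h : Ids a b c d) : Ids (φ a) (φ b) (φ c) (φ d) := by
  have key : ∀ {p q : G}, p = q → φ p = φ q := fun h => congrArg φ h
  obtain ⟨h1, h2, h3, h4, h5, h6, h7, h8, h9, h10, h11, h12, h13, h14, h15, h16, h17, h18, h19,
    h20, h21, h22, h23, h24, h25, h26, h27⟩ := h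
  constructor
  all_goals simp only [← map_wc2, ← map_wc3, ← map_wc4, ← map_wc5, ← map_wa2, ← map_wa3, ← map_wa4,
    ← map_wx162, ← map_wx163, ← map_wx164, ← map_wx165, ← map_wx166, ← map_wx167, ← map_wx168,
    ← map_wx169, ← map_wx29, ← map_wx369, ← map_mul, ← map_inv, ← map_pow]
  all_goals first
    | (rw [← map_one φ]; apply key; assumption)
    | (apply key; assumption)

theorem ZRels.map (h : ZRels a b c d z) : ZRels (φ a) (φ b) (φ c) (φ d) (φ z) := by
  have key : ∀ {p q : G}, p = q → φ p = φ q := fun h => congrArg φ h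
  obtain ⟨h1, h2, h3, h4, h5, h6, h7, h8, h9, h10, h11⟩ := h
  constructor
  all_goals simp only [← map_wc2, ← map_wc3, ← map_wc4, ← map_wc5, ← map_wa2, ← map_wa3, ← map_wa4,
    ← map_wx162, ← map_wx163, ← map_wx164, ← map_wx165, ← map_wx166, ← map_wx167, ← map_wx168,
    ← map_wx169, ← map_wx29, ← map_wx369, ← map_mul, ← map_inv, ← map_pow]
  all_goals first
    | (rw [← map_one φ]; apply key; assumption)
    | (apply key; assumption)

end CfsgLib.LyCover50
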