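import Cfsg.Agent.LyCover50.Main
import Cfsg.Agent.S1055
import Cfsg.Agent.S2100

/-!
The Schur multiplier of the Lyons group from a model of ⟨a, b, c, d⟩ of type G₂ over five elements.
-/

set_option autoImplicit false

namespace CfsgLib.LyCover50

open Cfsg Cfsg.Spor
open scoped commutatorElement

/-- a simple group that is not commutative is perfect -/
theorem commutator_eq_top_of_simple {M : Type*} [Group M] [IsSimpleGroup M]
    (h : ¬ IsMulCommutative M) : commutator M = ⊤ := by
  rcases (inferInstance : (commutator M).Normal).eq_bot_or_eq_top with h0 | h1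
  · exfalso
    apply h
    refine ⟨⟨fun x y => ?_⟩⟩
    have hxy : ⁅x, y⁆ ∈ commutator M := by
      rw [commutator_def]
      exact Subgroup.commutator_mem_commutator (Subgroup.mem_top x) (Subgroup.mem_top y)
    rw [h0, Subgroup.mem_bot] at hxy
    exact commutatorElement_eq_one_iff_mul_comm.1 hxy
  · exact h1

/-- a group of type G₂ over five elements is perfect, with trivial multiplier -/
theorem g2_five {M : Type} [Group M] {K : Type} [Field K] [Fintype K] (hK : Fintype.card K = 5)
    (e : M ≃* ↥(Cfsg.Lie.chevG2.group K)) :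
    Finite M ∧ commutator M = ⊤ ∧ Cfsg.HasCyclicSchurMultiplier M 1 := by
  classical
  have hne : ∃ a : K, a ≠ 0 ∧ a ≠ 1 := by
    by_contra hcon
    have h : ∀ a : K, a = 0 ∨ a = 1 := fun a => by
      by_contra ha
      exact hcon ⟨a, fun h0 => ha (Or.inl h0), fun h1 => ha (Or.inr h1)⟩
    have : (Finset.univ : Finset K) ⊆ {0, 1} := fun a _ => by simpa using h a
    have hle := Finset.card_le_card this
    rw [Finset.card_univ, hK] at hle
    exact absurd (hle.trans Finset.card_le_two) (by norm_num)
  obtain ⟨hs, hnc⟩ := Cfsg.Agent.S1055.result (F := K) hne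
  have hsM : IsSimpleGroup M := e.isSimpleGroup_congr.2 hs
  refine ⟨Finite.of_equiv _ e.toEquiv.symm, commutator_eq_top_of_simple fun h => hnc ?_,
    CfsgLib.SchurMult.hasSchurMultiplier_congr_left e.symm
      (Cfsg.Agent.S2100.result (F := K) (by omega))⟩
  refine ⟨⟨fun x y => e.symm.injective ?_⟩⟩
  rw [map_mul, map_mul]
  exact h.is_comm.comm _ _

/-- the multiplier is trivial, given a model of ⟨a, b, c, d⟩ and the bound over it -/
theorem multiplier_Ly_of_g2 {M : Type} [Group M] {K : Type} [Field K] [Fintype K]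
    (hK : Fintype.card K = 5) (e : M ≃* ↥(Cfsg.Lie.chevG2.group K)) {A B C D : M}
    (ids : Ids A B C D) (φ₀ : M →* Spor.Ly) (ha : φ₀ A = lg .a) (hb : φ₀ B = lg .b)
    (hc : φ₀ C = lg .c) (hd : φ₀ D = lg .d) [Finite Spor.Ly]
    (hbound : ∀ (E : Type) [Group E] [Finite E] (φ : M →* E) (t : E),
      ZRels (φ A) (φ B) (φ C) (φ D) t → Subgroup.closure ((φ.range : Set E) ∪ {t}) = ⊤ →
        Nat.card E ≤ Nat.card Spor.Ly) :
    Cfsg.HasCyclicSchurMultiplier Spor.Ly 1 := by
  obtain ⟨hfin, hperf, hM⟩ := g2_five hK e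
  exact multiplier_Ly_of hperf hM ids φ₀ ha hb hc hd hbound

end CfsgLib.LyCover50
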